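/-
A group of the same order as a simple group, with generators matching generators of a cover of the simple group.
-/
import Cfsg.Agent.Lib.J2U.Abs

set_option autoImplicit false

namespace Cfsg.Agent.Lib.J2U

theorem iso_of_simple {S P K : Type*} [Group S] [Group P] [Group K] [Finite S] [Finite K]
    (π : S →* P) (hπ : Function.Surjective π) (hP : IsSimpleGroup P) (hcard : Nat.card K = Nat.card P)
    (γ : ℕ → S) (Γ : ℕ → K) (A : ℕ) (hclo : Subgroup.closure (γ '' {a | a < A}) = ⊤)
    (Rel : S → K → Prop) (h1 : Rel 1 1) (hs : ∀ a < A, ∀ s k, Rel s k → Rel (γ a * s) (Γ a * k))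
    (s₀ : S) (hsep : ∀ s, Rel s 1 → π s ≠ π s₀) : Nonempty (K ≃* P) := by
  classical
  set D : Subgroup (S × K) := Subgroup.closure {z | ∃ a < A, z = (γ a, Γ a)} with hD
  have hgen : ∀ a < A, (γ a, Γ a) ∈ D := fun a ha => Subgroup.subset_closure ⟨a, ha, rfl⟩
  have hinv : ∀ z ∈ D, Rel z.1 z.2 := by
    apply closure_left_ind
    · exact h1
    · rintro t ⟨a, ha, rfl⟩ y hy
      exact hs a ha _ _ hy
  have hsurj : ∀ s : S, ∃ k, (s, k) ∈ D := by
    intro s
    have hs' : s ∈ Subgroup.closure (γ '' {a | a < A}) := by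
      rw [hclo]
      trivial
    induction hs' using Subgroup.closure_induction with
    | mem x hx =>
      obtain ⟨a, ha, rfl⟩ := hx
      exact ⟨_, hgen a ha⟩
    | one => exact ⟨1, D.one_mem⟩
    | mul x y _ _ ihx ihy =>
      obtain ⟨k, hk⟩ := ihx
      obtain ⟨l, hl⟩ := ihy
      exact ⟨k * l, D.mul_mem hk hl⟩
    | inv x _ ih =>
      obtain ⟨k, hk⟩ := ih
      exact ⟨k⁻¹, D.inv_mem hk⟩
  let φ : D →* P := π.comp ((MonoidHom.fst S K).comp D.subtype)
  have hφ : Function.Surjective φ := by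
    intro p
    obtain ⟨s, rfl⟩ := hπ p
    obtain ⟨k, hk⟩ := hsurj s
    exact ⟨⟨_, hk⟩, rfl⟩
  let p2 : D →* K := (MonoidHom.snd S K).comp D.subtype
  have hN : (p2.ker.map φ).Normal := (inferInstance : p2.ker.Normal).map φ hφ
  have hbot : p2.ker.map φ = ⊥ := by
    rcases hP.eq_bot_or_eq_top_of_normal _ hN with h | h
    · exact h
    · exfalso
      have hm : π s₀ ∈ p2.ker.map φ := by
        rw [h]
        trivial
      obtain ⟨z, hz, e⟩ := hm
      have hz2 : z.1.2 = 1 := hz
      have := hinv z.1 z.2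
      rw [hz2] at this
      exact hsep _ this e
  have hker : p2.ker ≤ φ.ker := by
    intro z hz
    have : φ z ∈ p2.ker.map φ := ⟨z, hz, rfl⟩
    rw [hbot] at this
    exact this
  let p3 : D →* p2.range := p2.rangeRestrict
  have hp3 : Function.Surjective p3 := p2.rangeRestrict_surjective
  have hker3 : p3.ker ≤ φ.ker := by
    rw [MonoidHom.ker_rangeRestrict]
    exact hker
  let ψ : p2.range →* P := (MonoidHom.liftOfRightInverse p3 (Function.surjInv hp3) (Function.rightInverse_surjInv hp3)) ⟨φ, hker3⟩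
  have hψ : ∀ z, ψ (p3 z) = φ z := fun z =>
    MonoidHom.liftOfRightInverse_comp_apply p3 (Function.surjInv hp3) (Function.rightInverse_surjInv hp3) ⟨φ, hker3⟩ z
  have hψs : Function.Surjective ψ := by
    intro p
    obtain ⟨z, rfl⟩ := hφ p
    exact ⟨p3 z, hψ z⟩
  have hfK : Finite K := inferInstance
  have hc1 : Nat.card P ≤ Nat.card p2.range := Nat.card_le_card_of_surjective ψ hψs
  have hc2 : Nat.card p2.range ≤ Nat.card K := Subgroup.card_le_card_group _
  have hc3 : Nat.card p2.range = Nat.card K := le_antisymm hc2 (by omega)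
  have htop : p2.range = ⊤ := Subgroup.eq_top_of_card_eq _ hc3
  have hbij : Function.Bijective ψ := by
    rw [Nat.bijective_iff_surjective_and_card]
    exact ⟨hψs, by omega⟩
  exact ⟨Subgroup.topEquiv.symm.trans ((MulEquiv.subgroupCongr htop.symm).trans (MulEquiv.ofBijective ψ hbij))⟩

end Cfsg.Agent.Lib.J2U
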