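/-
Checks for the unitary subgroup of the McLaughlin group.
-/
import Cfsg.Agent.Lib.LeechP.Fam.SimpM
import Cfsg.Agent.Lib.U43M.Data
import Cfsg.Agent.Lib.U43M.Gen

set_option autoImplicit false
set_option maxRecDepth 100000

namespace Cfsg.Agent.Lib.U43M

open Cfsg Cfsg.Agent.Lib.LeechP Cfsg.Agent.Lib.Golay Cfsg.Agent.Lib.Golay.Leech Cfsg.Agent.Lib.LeechX Cfsg.Agent.Lib.M24
open Cfsg.Agent.Lib.KnownSimple.LabField Cfsg.Agent.Lib.KnownSimple.LabVec
open Cfsg.Agent.Lib.KnownSimple.U43Lab (Ls)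
open Cfsg.Agent.Lib.KnownSimple.Lab (allI)

/-- A field of a packed table. -/
def gt (T w i : ℕ) : ℕ := Nat.shiftRight T (w * i) % 2 ^ w

/-- A generator on a vector. -/
def tq (m y : ℕ) : ℕ := gt (bif Nat.beq m 0 then TQ0 else TQ1) 7 y

/-- A word on a vector. -/
def wQ : List ℕ → ℕ → ℕ
  | [], y => y
  | m :: w, y => tq m (wQ w y)

/-- A letter on a vector. -/
def qa (a y : ℕ) : ℕ := gt (bif Nat.beq a 0 then QA0 else QA1) 7 y

/-- A coefficient. -/
def cf (a y t : ℕ) : ℕ := gt CF 4 ((a * 112 + y) * 4 + t)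

/-- A vector. -/
def Xc (y : ℕ) : ℕ := XL.getD y 0

/-- A vector of a line. -/
def VSc (y : ℕ) : List ℕ := VS.getD y []

/-- A vector of a line. -/
def WSc (y : ℕ) : List ℕ := WS.getD y []

/-- The rows of a generator. -/
def rws (m : ℕ) : List Row := bif Nat.beq m 0 then cUR0 else cUR1

/-- A linear combination of codes. -/
def comb (c d : ℕ) (u w : List ℕ) : List ℕ :=
  (List.range 4).map fun i => add9 (mul9 c (u.getD i 0)) (mul9 d (w.getD i 0))

/-- The check of a vector. -/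
noncomputable def chkX (y : ℕ) : Bool := latOK (Xc y) && decide (sqNorm (dec (Xc y)) ≤ 256)

theorem c_X : allI chkX 0 112 = true := by decide +kernel

/-- The check of a generator. -/
noncomputable def chkT (m y : ℕ) : Bool := Nat.blt (tq m y) 112 && Nat.beq (evalM (rws m) (Xc y)) (Xc (tq m y))

theorem c_T0 : allI (chkT 0) 0 112 = true := by decide +kernel
theorem c_T1 : allI (chkT 1) 0 112 = true := by decide +kernel

/-- The check of a letter. -/
def chkQ (y : ℕ) : Bool := Nat.beq (qa 0 y) (wQ WA0 y) && Nat.beq (qa 1 y) (wQ WA1 y)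

theorem c_Q : allI chkQ 0 112 = true := by decide +kernel

theorem c_words : (∀ m ∈ WA0, m < 2) ∧ (∀ m ∈ WA1, m < 2) := by decide +kernel

/-- The check of a letter on the lines. -/
def chkL (a y : ℕ) : Bool :=
  decide (mulVC add9 mul9 4 (Ls.getD a []) (VSc y) = comb (cf a y 0) (cf a y 1) (VSc (qa a y)) (WSc (qa a y))) &&
  decide (mulVC add9 mul9 4 (Ls.getD a []) (WSc y) = comb (cf a y 2) (cf a y 3) (VSc (qa a y)) (WSc (qa a y)))

theorem c_L0 : allI (chkL 0) 0 112 = true := by decide +kernel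
theorem c_L1 : allI (chkL 1) 0 112 = true := by decide +kernel

theorem c_sep : ∀ la < 9, la ≠ 0 → ∀ ca < 9, ∀ cb < 9, ¬ (∀ i < 4,
    mul9 la ((mulVC add9 mul9 4 (Ls.getD 0 []) (VSc y0)).getD i 0) =
      add9 (mul9 ca ((VSc y0).getD i 0)) (mul9 cb ((WSc y0).getD i 0))) := by decide +kernel

theorem c_bd : (∀ a < 9, ∀ b < 9, add9 a b < 9 ∧ mul9 a b < 9) ∧
    (∀ i < 4, (mulVC add9 mul9 4 (Ls.getD 0 []) (VSc y0)).getD i 0 < 9 ∧ (VSc y0).getD i 0 < 9 ∧ (WSc y0).getD i 0 < 9) := by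
  decide +kernel

theorem c_y0 : y0 < 112 ∧ ∀ y < 112, Xc y = Xc y0 → y = y0 := by decide +kernel

end Cfsg.Agent.Lib.U43M
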