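/-
The point stabiliser of the rank 3 action of the McLaughlin group is the unitary group.
-/
import Cfsg.Agent.Lib.U43M.Chk
import Cfsg.Agent.Lib.U43M.Abs
import Cfsg.Agent.Lib.Classical.PSUSimple

set_option autoImplicit false
set_option maxRecDepth 100000

namespace Cfsg.Agent.Lib.U43M

open Cfsg Cfsg.Agent.Lib.LeechP Cfsg.Agent.Lib.Golay Cfsg.Agent.Lib.Golay.Leech Cfsg.Agent.Lib.LeechX Cfsg.Agent.Lib.M24
open Cfsg.Agent.Lib.KnownSimple.LabField Cfsg.Agent.Lib.KnownSimple.LabVec Cfsg.Agent.Lib.KnownSimple.LabSU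
open Cfsg.Agent.Lib.KnownSimple.LabMat
open Cfsg.Agent.Lib.KnownSimple.U43Lab (Ls)
open Cfsg.Agent.Lib.KnownSimple.Lab (allI of_allI)
open Matrix

/-- A vector of the lattice. -/
noncomputable def Xv (y : ℕ) : ↥leechLattice :=
  open _root_.Classical in if h : dec (Xc y) ∈ leechLattice then ⟨dec (Xc y), h⟩ else 0

lemma chkX_spec {y : ℕ} (hy : y < 112) :
    Val (Xc y) ∧ dec (Xc y) ∈ leechLattice ∧ sqNorm (dec (Xc y)) ≤ 256 := by
  have h : chkX y = true := of_allI c_X y (by omega) (by omega)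
  simp only [chkX, Bool.and_eq_true, decide_eq_true_eq] at h
  have h2 := lat_of_latOK h.1
  exact ⟨h2.1, h2.2, h.2⟩

lemma Xv_coe {y : ℕ} (hy : y < 112) : (Xv y).1 = dec (Xc y) := by
  unfold Xv
  rw [dif_pos (chkX_spec hy).2.1]

lemma rws_mat {m : ℕ} (hm : m < 2) : MatOK (Fx cUL) (rws m) := by
  have hS := cU_sys
  simp only [sysChk, Bool.and_eq_true] at hS
  obtain ⟨⟨h1, h2⟩, _⟩ := hS
  have hL := goodL_of _ h1
  have hm' : m = 0 ∨ m = 1 := by omega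
  rcases hm' with rfl | rfl
  · exact mvOK_of_chk hL (allL_spec h2 (Mv.mat cUR0) (by simp [cUGm]))
  · exact mvOK_of_chk hL (allL_spec h2 (Mv.mat cUR1) (by simp [cUGm]))

lemma gen_act {m : ℕ} (hm : m < 2) : ∃ g ∈ Fx cUL, ∀ y < 112, tq m y < 112 ∧ g • Xv y = Xv (tq m y) := by
  obtain ⟨hr, g, hg, hc⟩ := rws_mat hm
  refine ⟨g, hg, fun y hy => ?_⟩
  have hchk : chkT m y = true := by
    have hm' : m = 0 ∨ m = 1 := by omega
    rcases hm' with rfl | rfl
    · exact of_allI c_T0 y (by omega) (by omega)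
    · exact of_allI c_T1 y (by omega) (by omega)
  simp only [chkT, Bool.and_eq_true] at hchk
  have h1 : tq m y < 112 := blt_sound hchk.1
  have h2 : evalM (rws m) (Xc y) = Xc (tq m y) := Nat.eq_of_beq_eq_true hchk.2
  refine ⟨h1, ?_⟩
  obtain ⟨hv, hd, hb⟩ := chkX_spec hy
  have h3 := (evalM_spec hr hc hv hd hb).2
  rw [h2] at h3
  apply Subtype.ext
  rw [Xv_coe h1, h3]
  have h4 : Xv y = ⟨dec (Xc y), hd⟩ := Subtype.ext (Xv_coe hy)
  rw [h4]
  rfl

lemma word_K (w : List ℕ) (hw : ∀ m ∈ w, m < 2) :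
    ∃ g ∈ Fx cUL, ∀ y < 112, wQ w y < 112 ∧ g • Xv y = Xv (wQ w y) := by
  induction w with
  | nil => exact ⟨1, Subgroup.one_mem _, fun y hy => ⟨hy, one_smul _ _⟩⟩
  | cons m w ih =>
    obtain ⟨g, hg, h⟩ := ih (fun j hj => hw j (List.mem_cons_of_mem _ hj))
    obtain ⟨g', hg', h'⟩ := gen_act (hw m List.mem_cons_self)
    refine ⟨g' * g, Subgroup.mul_mem _ hg' hg, fun y hy => ?_⟩
    obtain ⟨h1, h2⟩ := h y hy
    obtain ⟨h3, h4⟩ := h' _ h1
    exact ⟨h3, by rw [mul_smul, h2, h4]; rfl⟩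

lemma toV_comb {F : Type*} [Field F] (R : Rep F 9 add9 mul9) (c d : ℕ) (u w : List ℕ) :
    toV R.φ 4 (comb c d u w) = R.φ c • toV R.φ 4 u + R.φ d • toV R.φ 4 w := by
  ext i
  simp only [toV, comb, Pi.add_apply, Pi.smul_apply, smul_eq_mul]
  rw [getD_range_map' _ i.2, R.hadd, R.hmul, R.hmul]

section

variable {F : Type*} [Field F] [Fintype F] (hF' : Fintype.card F = 3 ^ 2) (R : Rep F 9 add9 mul9)

/-- The relation. -/
def Rel (s : Cfsg.SU 4 F 3) (k : ↥(Fx cUL)) : Prop :=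
  ∀ y < 112, ∃ y' < 112, k.1 • Xv y = Xv y' ∧ ∃ a b c d : F,
    suHom 4 F 3 s *ᵥ toV R.φ 4 (VSc y) = a • toV R.φ 4 (VSc y') + b • toV R.φ 4 (WSc y') ∧
    suHom 4 F 3 s *ᵥ toV R.φ 4 (WSc y) = c • toV R.φ 4 (VSc y') + d • toV R.φ 4 (WSc y')

omit [Fintype F] in
lemma letter_line {a y : ℕ} (ha : a < 2) (hy : y < 112) (A : Matrix (Fin 4) (Fin 4) F)
    (hA : A = toM R.φ 4 (Ls.getD a [])) :
    A *ᵥ toV R.φ 4 (VSc y) = R.φ (cf a y 0) • toV R.φ 4 (VSc (qa a y)) + R.φ (cf a y 1) • toV R.φ 4 (WSc (qa a y)) ∧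
    A *ᵥ toV R.φ 4 (WSc y) = R.φ (cf a y 2) • toV R.φ 4 (VSc (qa a y)) + R.φ (cf a y 3) • toV R.φ 4 (WSc (qa a y)) := by
  have h : chkL a y = true := by
    have ha' : a = 0 ∨ a = 1 := by omega
    rcases ha' with rfl | rfl
    · exact of_allI c_L0 y (by omega) (by omega)
    · exact of_allI c_L1 y (by omega) (by omega)
  simp only [chkL, Bool.and_eq_true, decide_eq_true_eq] at h
  subst hA
  constructor
  · rw [← toV_mulVC R.hadd R.hmul R.h0, h.1, toV_comb]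
  · rw [← toV_mulVC R.hadd R.hmul R.h0, h.2, toV_comb]

end

lemma mulVec_diag_aux {F : Type*} [Field F] (lam : F) (v : Fin 4 → F) :
    Matrix.diagonal (fun _ : Fin 4 => lam) *ᵥ v = lam • v := by
  ext i
  simp [Matrix.mulVec_diagonal]

/-- The standard case. -/
theorem iso_std {F : Type*} [Field F] [Fintype F] (hF : Fintype.card F = 9) : Nonempty (↥(Fx cUL) ≃* Cfsg.PSU 4 F 3) := by
  classical
  have hF' : Fintype.card F = 3 ^ 2 := by rw [hF]; norm_num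
  obtain ⟨R⟩ := exists_rep9 hF
  obtain ⟨γ, hγ, hclo⟩ := letters_closure hF' R
  have hcK : Nat.card ↥(Fx cUL) = 3265920 := card_Gu
  have hcP : Nat.card (Cfsg.PSU 4 F 3) = 3265920 := by
    have h1 := card_psu (n := 4) hF' (by norm_num)
    have h2 : ∏ i ∈ Finset.range 4, (if Even i then 3 ^ (i + 1) + 1 else 3 ^ (i + 1) - 1) = 71680 := by decide
    rw [h2] at h1
    rw [show Nat.gcd 4 (3 + 1) = 4 by decide, show (3 : ℕ) ^ (4 * (4 - 1) / 2) * 71680 = 52254720 by norm_num] at h1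
    omega
  haveI hfK : Finite ↥(Fx cUL) := Nat.finite_of_card_ne_zero (by rw [hcK]; norm_num)
  haveI hfS : Finite (Cfsg.SU 4 F 3) := inferInstance
  obtain ⟨x0, hx0, h0⟩ := word_K WA0 c_words.1
  obtain ⟨x1, hx1, h1⟩ := word_K WA1 c_words.2
  let Γ : ℕ → ↥(Fx cUL) := fun a => if a = 0 then ⟨x0, hx0⟩ else ⟨x1, hx1⟩
  have hqa : ∀ y < 112, qa 0 y = wQ WA0 y ∧ qa 1 y = wQ WA1 y := by
    intro y hy
    have h : chkQ y = true := of_allI c_Q y (by omega) (by omega)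
    simp only [chkQ, Bool.and_eq_true] at h
    exact ⟨Nat.eq_of_beq_eq_true h.1, Nat.eq_of_beq_eq_true h.2⟩
  have hΓ : ∀ a < 2, ∀ y < 112, qa a y < 112 ∧ (Γ a).1 • Xv y = Xv (qa a y) := by
    intro a ha y hy
    have ha' : a = 0 ∨ a = 1 := by omega
    rcases ha' with rfl | rfl
    · rw [(hqa y hy).1]
      exact h0 y hy
    · rw [(hqa y hy).2]
      exact h1 y hy
  let π : Cfsg.SU 4 F 3 →* Cfsg.PSU 4 F 3 := QuotientGroup.mk' _
  have hπ : Function.Surjective π := QuotientGroup.mk'_surjective _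
  refine Cfsg.Agent.Lib.J2U.iso_of_simple π hπ (Cfsg.Agent.Lib.Classical.psu_simple hF' (by norm_num) (by norm_num))
    (hcK.trans hcP.symm) γ Γ 2 hclo (Rel R) ?_ ?_ (γ 0) ?_
  · intro y hy
    refine ⟨y, hy, one_smul _ _, 1, 0, 0, 1, ?_, ?_⟩
    · rw [map_one, Matrix.one_mulVec]
      simp
    · rw [map_one, Matrix.one_mulVec]
      simp
  · intro a ha s k hR y hy
    obtain ⟨y', hy', e, c1, c2, c3, c4, e1, e2⟩ := hR y hy
    obtain ⟨q1, q2⟩ := hΓ a ha y' hy'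
    obtain ⟨l1, l2⟩ := letter_line R ha hy' _ (hγ a (by omega))
    refine ⟨qa a y', q1, ?_, c1 * R.φ (cf a y' 0) + c2 * R.φ (cf a y' 2), c1 * R.φ (cf a y' 1) + c2 * R.φ (cf a y' 3),
      c3 * R.φ (cf a y' 0) + c4 * R.φ (cf a y' 2), c3 * R.φ (cf a y' 1) + c4 * R.φ (cf a y' 3), ?_, ?_⟩
    · show ((Γ a).1 * k.1) • Xv y = _
      rw [mul_smul, e, q2]
    · rw [map_mul, ← Matrix.mulVec_mulVec, e1, Matrix.mulVec_add, Matrix.mulVec_smul, Matrix.mulVec_smul, l1, l2]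
      module
    · rw [map_mul, ← Matrix.mulVec_mulVec, e2, Matrix.mulVec_add, Matrix.mulVec_smul, Matrix.mulVec_smul, l1, l2]
      module
  · intro s hR he
    have hz : (γ 0)⁻¹ * s ∈ Subgroup.center (Cfsg.SU 4 F 3) := QuotientGroup.eq.1 he.symm
    obtain ⟨lam, hlam⟩ := Cfsg.Agent.Lib.Classical.su_center_scalar hF' (by norm_num) ⟨_, hz⟩
    have hdet : Matrix.det (((γ 0)⁻¹ * s).1.1 : Matrix (Fin 4) (Fin 4) F) = 1 := ((γ 0)⁻¹ * s).1.2
    have hlam' : (((γ 0)⁻¹ * s).1.1 : Matrix (Fin 4) (Fin 4) F) = Matrix.diagonal (fun _ => lam) := hlam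
    have hl0 : lam ≠ 0 := by
      rintro rfl
      rw [hlam', Matrix.det_diagonal] at hdet
      simp at hdet
    have hs : suHom 4 F 3 s = suHom 4 F 3 (γ 0) * Matrix.diagonal (fun _ => lam) := by
      have h1 : s = γ 0 * ((γ 0)⁻¹ * s) := by group
      conv_lhs => rw [h1]
      rw [map_mul]
      congr 1
    obtain ⟨y', hy', e, c1, c2, _, _, e1, _⟩ := hR y0 c_y0.1
    have hyy : y' = y0 := by
      have h1 : Xv y0 = Xv y' := e
      have h2 : dec (Xc y0) = dec (Xc y') := by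
        rw [← Xv_coe c_y0.1, ← Xv_coe hy', h1]
      have h3 := dec_inj (chkX_spec c_y0.1).1 (chkX_spec hy').1 h2
      exact c_y0.2 y' hy' h3.symm
    subst hyy
    rw [hs, ← Matrix.mulVec_mulVec, mulVec_diag_aux lam, Matrix.mulVec_smul, hγ 0 (by norm_num),
      ← toV_mulVC R.hadd R.hmul R.h0] at e1
    obtain ⟨la, hla, rfl⟩ := R.hsurj lam
    obtain ⟨ca, hca, rfl⟩ := R.hsurj c1
    obtain ⟨cb, hcb, rfl⟩ := R.hsurj c2
    have hla0 : la ≠ 0 := by
      rintro rfl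
      exact hl0 R.h0
    refine c_sep la hla hla0 ca hca cb hcb ?_
    intro i hi
    have h2 := congrFun e1 ⟨i, hi⟩
    simp only [toV, Pi.smul_apply, Pi.add_apply, smul_eq_mul] at h2
    obtain ⟨b1, b2, b3⟩ := c_bd.2 i hi
    apply R.hinj _ _ (c_bd.1 _ hla _ b1).2 (c_bd.1 _ (c_bd.1 _ hca _ b2).2 _ (c_bd.1 _ hcb _ b3).2).1
    rw [R.hmul, R.hadd, R.hmul, R.hmul]
    exact h2

/-- Transport along a conjugation. -/
theorem conj_equiv {G : Type*} [Group G] (a : G) (H H' : Subgroup G) (h : ∀ g, g ∈ H ↔ a * g * a⁻¹ ∈ H') :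
    Nonempty (H ≃* H') := by
  refine ⟨{ toFun := fun g => ⟨a * g.1 * a⁻¹, (h _).1 g.2⟩
            invFun := fun g => ⟨a⁻¹ * g.1 * a, (h _).2 (by
              have e : a * (a⁻¹ * g.1 * a) * a⁻¹ = g.1 := by group
              rw [e]
              exact g.2)⟩
            left_inv := fun g => Subtype.ext (by simp [mul_assoc])
            right_inv := fun g => Subtype.ext (by simp [mul_assoc])
            map_mul' := fun x y => Subtype.ext (by simp [mul_assoc]) }⟩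

/-- The statement for all triples. -/
theorem main_stab (u v x : ↥leechLattice) (hu : sqNorm u.1 = 48) (hv : sqNorm v.1 = 32 ∧ sqNorm (u.1 - v.1) = 32)
    (hx : x ∈ {x : ↥leechLattice | sqNorm x.1 = 32 ∧ sqNorm (u.1 - x.1) = 32 ∧ dotInt v.1 x.1 = 16})
    (F : Type) [Field F] [Fintype F] (hF : Fintype.card F = 9) :
    Nonempty (↥(MulAction.stabilizer ↥Co0 u ⊓ MulAction.stabilizer ↥Co0 v ⊓ MulAction.stabilizer ↥Co0 x) ≃* Cfsg.PSU 4 F 3) := by
  have hx' : x ∈ S2 u 24 v 16 := by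
    rw [← s1580_set u v hu]
    exact hx
  obtain ⟨a, h1, h2, h3⟩ := mcl_frame3 u v x hu hv.1 hv.2 hx'
  obtain ⟨e⟩ := iso_std (F := F) hF
  obtain ⟨e'⟩ := conj_equiv a (MulAction.stabilizer ↥Co0 u ⊓ MulAction.stabilizer ↥Co0 v ⊓ MulAction.stabilizer ↥Co0 x) (Fx cUL) (by
    intro g
    have key : ∀ {p q : ↥leechLattice}, a • p = q → ((a * g * a⁻¹) • q = q ↔ g • p = p) := by
      intro p q hq
      subst hq
      simp only [mul_smul, inv_smul_smul]
      exact smul_left_cancel_iff a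
    rw [mem_Gu_iff]
    constructor
    · rintro ⟨⟨a1, a2⟩, a3⟩
      have b1 : (a * g * a⁻¹) • bU = bU := (key h1).2 a1
      have b2 : (a * g * a⁻¹) • bV = bV := (key h2).2 a2
      have b3 : (a * g * a⁻¹) • bP = bP := (key h3).2 a3
      refine ⟨⟨b2, ?_⟩, b3⟩
      have e1 := b1
      rw [← bU_eq, smul_add', b2] at e1
      exact add_left_cancel e1
    · rintro ⟨⟨b2, b4⟩, b3⟩
      have b1 : (a * g * a⁻¹) • bU = bU := by
        rw [← bU_eq, smul_add', show (a * g * a⁻¹) • bV = bV from b2, show (a * g * a⁻¹) • bW = bW from b4]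
      exact ⟨⟨(key h1).1 b1, (key h2).1 b2⟩, (key h3).1 b3⟩)
  exact ⟨e'.trans e⟩

end Cfsg.Agent.Lib.U43M
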